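import Mathlib
import Cfsg.Agent.Lib.Helper74.O720.Defs
import Cfsg.Agent.Lib.Helper20.O720.P9
import Cfsg.Agent.Lib.Helper25.O720.L2
import Cfsg.Agent.Lib.Helper25.O720.L1

set_option autoImplicit false

namespace Cfsg.Agent.Lib.Helper74.O720

variable {G : Type*} [Group G] [Finite G] [IsSimpleGroup G]

/-- [L3] -/
theorem L3 (h : Nat.card G = 720) (P : Sylow 3 G) (hM : Nat.card (Nz (P : Subgroup G)) = 72)
    (hC : Cz (P : Subgroup G) = (P : Subgroup G)) (g : G) (hg : g ∉ Nz (P : Subgroup G))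
    (h8 : Nat.card (Ig (Nz (P : Subgroup G)) g) = 8) (s : G) (hs : s ∈ Ig (Nz (P : Subgroup G)) g) (hs1 : s ≠ 1) :
    Nat.card {x : G ⧸ Nz (P : Subgroup G) // s • x = x} ≤ 4 := by
  classical
  obtain ⟨Cs, hCs⟩ : ∃ Cs : Subgroup G, Cs = (P : Subgroup G) ⊓ Subgroup.centralizer {s} := ⟨_, rfl⟩
  have hmemCs : ∀ u : G, u ∈ Cs ↔ u ∈ (P : Subgroup G) ∧ u * s = s * u := by
    intro u
    rw [hCs, Subgroup.mem_inf, Subgroup.mem_centralizer_singleton_iff]
  have h9 := card_P h P
  have hle : Cs ≤ (P : Subgroup G) := by rw [hCs]; exact inf_le_left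
  have hdvd : Nat.card Cs ∣ 9 := by rw [← h9]; exact Subgroup.card_dvd_of_le hle
  have hne : Nat.card Cs ≠ 9 := by
    intro e
    have heq : Cs = (P : Subgroup G) := Subgroup.eq_of_le_of_card_ge hle (by rw [e, h9])
    have hsC : s ∈ Cz (P : Subgroup G) := by
      rw [Subgroup.mem_centralizer_iff]
      intro u hu
      have hu' : u ∈ Cs := by rw [heq]; exact hu
      exact ((hmemCs u).1 hu').2
    rw [hC] at hsC
    have o9 : orderOf s ∣ 9 := by rw [← h9]; exact Subgroup.orderOf_dvd_natCard _ hsC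
    have o8 : orderOf s ∣ 8 := by rw [← h8]; exact Subgroup.orderOf_dvd_natCard _ hs
    have o1 : orderOf s ∣ Nat.gcd 9 8 := Nat.dvd_gcd o9 o8
    have o1' : orderOf s = 1 := Nat.dvd_one.1 (by simpa using o1)
    exact hs1 (orderOf_eq_one_iff.1 o1')
  have h3 : Nat.card Cs ≤ 3 := by
    have hle9 : Nat.card Cs ≤ 9 := Nat.le_of_dvd (by norm_num) hdvd
    generalize Nat.card Cs = c at *
    interval_cases c <;> simp_all
  have hsM : s ∈ Nz (P : Subgroup G) := hs.1
  have hsg : s ∈ cj g (Nz (P : Subgroup G)) := hs.2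
  -- the parametrisation of the fixed points
  let F : Option ↥Cs → {x : G ⧸ Nz (P : Subgroup G) // s • x = x} := fun o =>
    match o with
    | none => ⟨((1 : G) : G ⧸ Nz (P : Subgroup G)), by
        rw [smul_coset_eq_iff, cj_one]; exact hsM⟩
    | some u => ⟨((u.1 * g : G) : G ⧸ Nz (P : Subgroup G)), by
        have hu := ((hmemCs u.1).1 u.2).2
        rw [smul_coset_eq_iff, mem_cj]
        have h1 : (u.1 * g)⁻¹ * s * (u.1 * g) = g⁻¹ * (u.1⁻¹ * (s * u.1)) * g := by group
        rw [h1, ← hu]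
        have h2 : g⁻¹ * (u.1⁻¹ * (u.1 * s)) * g = g⁻¹ * s * g := by group
        rw [h2]
        exact mem_cj.1 hsg⟩
  have hF : Function.Surjective F := by
    rintro ⟨x, hx⟩
    obtain ⟨t, rfl⟩ := QuotientGroup.mk_surjective x
    by_cases ht : t ∈ Nz (P : Subgroup G)
    · refine ⟨none, Subtype.ext ?_⟩
      show ((1 : G) : G ⧸ Nz (P : Subgroup G)) = _
      rw [QuotientGroup.eq]
      simpa using ht
    · obtain ⟨u, hu, hut⟩ := L1 h P hM g hg h8 t ht
      have heq : ((u * g : G) : G ⧸ Nz (P : Subgroup G)) = ((t : G) : G ⧸ Nz (P : Subgroup G)) := by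
        rw [QuotientGroup.eq]; exact hut
      have hfix : s ∈ cj (u * g) (Nz (P : Subgroup G)) := by
        rw [← smul_coset_eq_iff, heq]; exact hx
      have hcomm := L2 h P g h8 s hs u hu hfix
      refine ⟨some ⟨u, (hmemCs u).2 ⟨hu, hcomm.symm⟩⟩, Subtype.ext ?_⟩
      exact heq
  have hcard := Nat.card_le_card_of_surjective F hF
  rw [Finite.card_option] at hcard
  omega

end Cfsg.Agent.Lib.Helper74.O720
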