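import Mathlib
import Cfsg.Agent.Lib.Helper74.O720.Defs
import Cfsg.Agent.Lib.Helper69.O720.L4
import Cfsg.Agent.Lib.Helper34.O720.SGN
import Cfsg.Agent.Lib.Helper96.O720.L3

set_option autoImplicit false

namespace Cfsg.Agent.Lib.Helper74.O720

variable {G : Type*} [Group G] [Finite G] [IsSimpleGroup G]

/-- [L5] -/
theorem L5 (h : Nat.card G = 720) (P : Sylow 3 G) (hM : Nat.card (Nz (P : Subgroup G)) = 72)
    (hC : Cz (P : Subgroup G) = (P : Subgroup G))
    (h8 : ∀ g : G, g ∉ Nz (P : Subgroup G) → Nat.card (Ig (Nz (P : Subgroup G)) g) = 8) (g g' : G)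
    (hg : g ∉ Nz (P : Subgroup G)) (hg' : g' ∉ Nz (P : Subgroup G)) (hgg' : g⁻¹ * g' ∉ Nz (P : Subgroup G)) :
    Nz (P : Subgroup G) ⊓ cj g (Nz (P : Subgroup G)) ⊓ cj g' (Nz (P : Subgroup G)) = ⊥ := by
  classical
  by_contra hne
  obtain ⟨T, hT⟩ : ∃ T : Subgroup G,
      T = Nz (P : Subgroup G) ⊓ cj g (Nz (P : Subgroup G)) ⊓ cj g' (Nz (P : Subgroup G)) := ⟨_, rfl⟩
  rw [← hT] at hne
  have hTle : T ≤ Ig (Nz (P : Subgroup G)) g := by rw [hT]; exact inf_le_left
  have hTg' : T ≤ cj g' (Nz (P : Subgroup G)) := by rw [hT]; exact inf_le_right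
  have hd8 : Nat.card T ∣ 8 := by rw [← h8 g hg]; exact Subgroup.card_dvd_of_le hTle
  have hc1 : Nat.card T ≠ 1 := fun e => hne (Subgroup.eq_bot_of_card_eq T e)
  have h2 : 2 ∣ Nat.card T := by
    have hle : Nat.card T ≤ 8 := Nat.le_of_dvd (by norm_num) hd8
    generalize Nat.card T = c at *
    interval_cases c <;> simp_all
  haveI : Fact (Nat.Prime 2) := ⟨Nat.prime_two⟩
  obtain ⟨⟨s, hsT⟩, hs2⟩ := exists_prime_orderOf_dvd_card' (G := ↥T) 2 h2
  have hs2' : orderOf s = 2 := by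
    rw [← hs2]; exact (Subgroup.orderOf_mk s hsT).symm
  have hs1 : s ≠ 1 := by
    intro e
    rw [e, orderOf_one] at hs2'
    omega
  have hss : s * s = 1 := by
    rw [← pow_two, ← hs2']; exact pow_orderOf_eq_one s
  have hsI := hTle hsT
  have hL3 := L3 h P hM hC g hg (h8 g hg) s hsI hs1
  haveI : Fintype (G ⧸ Nz (P : Subgroup G)) := Fintype.ofFinite _
  have h10 : Fintype.card (G ⧸ Nz (P : Subgroup G)) = 10 := by
    have h1 := Subgroup.card_mul_index (Nz (P : Subgroup G))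
    rw [hM, h] at h1
    have h2 : (Nz (P : Subgroup G)).index = Nat.card (G ⧸ Nz (P : Subgroup G)) := rfl
    rw [← Nat.card_eq_fintype_card]
    omega
  obtain ⟨σ, hσ⟩ : ∃ σ : Equiv.Perm (G ⧸ Nz (P : Subgroup G)), σ = MulAction.toPerm s := ⟨_, rfl⟩
  have hσa : ∀ x, σ x = s • x := by intro x; rw [hσ]; rfl
  have hσσ : σ * σ = 1 := by
    ext x
    rw [Equiv.Perm.mul_apply, hσa, hσa, ← mul_smul, hss, one_smul]
    rfl
  have hsgn : Equiv.Perm.sign σ = 1 := by rw [hσ]; exact SGN h s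
  have hf1 : σ ((1 : G) : G ⧸ Nz (P : Subgroup G)) = ((1 : G) : G ⧸ Nz (P : Subgroup G)) := by
    rw [hσa, smul_coset_eq_iff, cj_one]; exact hsI.1
  have hf2 : σ ((g : G) : G ⧸ Nz (P : Subgroup G)) = ((g : G) : G ⧸ Nz (P : Subgroup G)) := by
    rw [hσa, smul_coset_eq_iff]; exact hsI.2
  have hf3 : σ ((g' : G) : G ⧸ Nz (P : Subgroup G)) = ((g' : G) : G ⧸ Nz (P : Subgroup G)) := by
    rw [hσa, smul_coset_eq_iff]; exact hTg' hsT
  have n12 : ((1 : G) : G ⧸ Nz (P : Subgroup G)) ≠ ((g : G) : G ⧸ Nz (P : Subgroup G)) := by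
    intro e
    rw [QuotientGroup.eq] at e
    exact hg (by simpa using e)
  have n13 : ((1 : G) : G ⧸ Nz (P : Subgroup G)) ≠ ((g' : G) : G ⧸ Nz (P : Subgroup G)) := by
    intro e
    rw [QuotientGroup.eq] at e
    exact hg' (by simpa using e)
  have n23 : ((g : G) : G ⧸ Nz (P : Subgroup G)) ≠ ((g' : G) : G ⧸ Nz (P : Subgroup G)) := by
    intro e
    rw [QuotientGroup.eq] at e
    exact hgg' e
  have h3 : 3 ≤ (Finset.univ.filter fun x => σ x = x).card := by
    have hsub : ({((1 : G) : G ⧸ Nz (P : Subgroup G)), ((g : G) : G ⧸ Nz (P : Subgroup G)),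
        ((g' : G) : G ⧸ Nz (P : Subgroup G))} : Finset _) ⊆ Finset.univ.filter fun x => σ x = x := by
      intro x hx
      simp only [Finset.mem_insert, Finset.mem_singleton] at hx
      rw [Finset.mem_filter]
      refine ⟨Finset.mem_univ _, ?_⟩
      rcases hx with rfl | rfl | rfl
      · exact hf1
      · exact hf2
      · exact hf3
    have hc3 : ({((1 : G) : G ⧸ Nz (P : Subgroup G)), ((g : G) : G ⧸ Nz (P : Subgroup G)),
        ((g' : G) : G ⧸ Nz (P : Subgroup G))} : Finset _).card = 3 := by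
      rw [Finset.card_insert_of_notMem, Finset.card_insert_of_notMem, Finset.card_singleton]
      · simpa using n23
      · simp only [Finset.mem_insert, Finset.mem_singleton, not_or]
        exact ⟨n12, n13⟩
    exact hc3.symm.le.trans (Finset.card_le_card hsub)
  have h6 := L4 h10 σ hσσ hsgn h3
  have hcard : Nat.card {x : G ⧸ Nz (P : Subgroup G) // s • x = x} =
      (Finset.univ.filter fun x => σ x = x).card := by
    rw [Nat.card_eq_fintype_card, Fintype.card_subtype]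
    congr 1
    ext x
    simp only [Finset.mem_filter, Finset.mem_univ, true_and, hσa]
  omega

end Cfsg.Agent.Lib.Helper74.O720
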