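import Mathlib
import Cfsg.Agent.Lib.Helper74.O720.Defs
import Cfsg.Agent.Lib.Helper3.O720.ORB

set_option autoImplicit false

namespace Cfsg.Agent.Lib.Helper74.O720

section general
variable {G : Type*} [Group G] [Finite G]

theorem ZB_key (h : Nat.card G = 720) (M : Subgroup G) (hM : Nat.card M = 72)
    (h8 : ∀ g : G, g ∉ M → Nat.card (Ig M g) = 8) (y z : G ⧸ M) (hy : y ≠ ((1 : G) : G ⧸ M))
    (hz : z ≠ ((1 : G) : G ⧸ M)) : ∃ m ∈ M, m • y = z := by
  obtain ⟨g, rfl⟩ := QuotientGroup.mk_surjective y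
  have hg : g ∉ M := by
    intro hg
    apply hy
    rw [QuotientGroup.eq]
    simpa using hg
  have h10 : Nat.card (G ⧸ M) = 10 := by
    have h1 := Subgroup.card_mul_index M
    rw [hM, h] at h1
    have h2 : M.index = Nat.card (G ⧸ M) := rfl
    omega
  have ho := ORB M M g
  have h8' : Nat.card (M ⊓ cj g M : Subgroup G) = 8 := h8 g hg
  rw [h8', hM] at ho
  have h9 : Nat.card (MulAction.orbit M (g : G ⧸ M)) = 9 := by omega
  have hsub : MulAction.orbit M (g : G ⧸ M) ⊆ ({((1 : G) : G ⧸ M)} : Set (G ⧸ M))ᶜ := by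
    rintro _ ⟨⟨m, hm⟩, rfl⟩ h1
    have h2 : ((m * g : G) : G ⧸ M) = ((1 : G) : G ⧸ M) := h1
    rw [QuotientGroup.eq] at h2
    apply hg
    have h3 : m * g ∈ M := by
      have := inv_mem h2
      simpa using this
    have h4 : g = m⁻¹ * (m * g) := by group
    rw [h4]
    exact mul_mem (inv_mem hm) h3
  have hc : (({((1 : G) : G ⧸ M)} : Set (G ⧸ M))ᶜ).ncard = 9 := by
    have h1 := Set.ncard_add_ncard_compl ({((1 : G) : G ⧸ M)} : Set (G ⧸ M))
    rw [Set.ncard_singleton, h10] at h1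
    omega
  have heq : MulAction.orbit M (g : G ⧸ M) = ({((1 : G) : G ⧸ M)} : Set (G ⧸ M))ᶜ := by
    apply Set.eq_of_subset_of_ncard_le hsub _ (Set.toFinite _)
    rw [hc, ← Nat.card_coe_set_eq, h9]
  have hzO : z ∈ MulAction.orbit M (g : G ⧸ M) := by
    rw [heq]; exact hz
  obtain ⟨⟨m, hm⟩, hmz⟩ := hzO
  exact ⟨m, hm, hmz⟩

/-- [ZB] -/
theorem ZB (h : Nat.card G = 720) (M : Subgroup G) (hM : Nat.card M = 72)
    (h8 : ∀ g : G, g ∉ M → Nat.card (Ig M g) = 8) : MulAction.IsMultiplyPretransitive G (G ⧸ M) 2 := by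
  rw [MulAction.is_two_pretransitive_iff]
  intro a b c d hab hcd
  obtain ⟨x, rfl⟩ := QuotientGroup.mk_surjective a
  obtain ⟨x', rfl⟩ := QuotientGroup.mk_surjective c
  have hx1 : ∀ t : G, t⁻¹ • ((t : G) : G ⧸ M) = ((1 : G) : G ⧸ M) := by
    intro t
    show ((t⁻¹ * t : G) : G ⧸ M) = _
    rw [inv_mul_cancel]
  have hb' : x⁻¹ • b ≠ ((1 : G) : G ⧸ M) := by
    intro e
    apply hab
    rw [← hx1 x] at e
    exact (smul_left_cancel _ e).symm
  have hd' : x'⁻¹ • d ≠ ((1 : G) : G ⧸ M) := by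
    intro e
    apply hcd
    rw [← hx1 x'] at e
    exact (smul_left_cancel _ e).symm
  obtain ⟨m, hm, hmz⟩ := ZB_key h M hM h8 _ _ hb' hd'
  refine ⟨x' * m * x⁻¹, ?_, ?_⟩
  · rw [mul_smul, hx1, mul_smul]
    have h1 : m • ((1 : G) : G ⧸ M) = ((1 : G) : G ⧸ M) := by
      show ((m * 1 : G) : G ⧸ M) = _
      rw [QuotientGroup.eq]
      simpa using hm
    rw [h1]
    show ((x' * 1 : G) : G ⧸ M) = _
    rw [mul_one]
  · rw [mul_smul, mul_smul, hmz, smul_inv_smul]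

end general

end Cfsg.Agent.Lib.Helper74.O720
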